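import Cfsg.Agent.H29.ThreeJ.Data.Tabs
import Cfsg.Agent.H29.ThreeJ.Data.B

/-! Orbit data for `3·J₃` on lines, produced outside Lean and checked here. -/

set_option autoImplicit false
set_option maxRecDepth 16000
set_option Elab.async false

namespace H29.ThreeJData

open H29.ThreeJ H29.CosetCert Cfsg.Spor

theorem isob0_ok : allIn (fun r => Fam.isoOK famB (T 5) 0 r) 0 2500 = true := by decide +kernel

theorem isob1_ok : allIn (fun r => Fam.isoOK famB (T 5) 0 r) 2500 2500 = true := by decide +kernel

theorem isob2_ok : allIn (fun r => Fam.isoOK famB (T 5) 0 r) 5000 2500 = true := by decide +kernel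

theorem isob3_ok : allIn (fun r => Fam.isoOK famB (T 5) 0 r) 7500 2500 = true := by decide +kernel

theorem isob4_ok : allIn (fun r => Fam.isoOK famB (T 5) 0 r) 10000 2500 = true := by decide +kernel

theorem isob5_ok : allIn (fun r => Fam.isoOK famB (T 5) 0 r) 12500 2500 = true := by decide +kernel

end H29.ThreeJData
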