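import Cfsg.Agent.H29.ThreeJ.Data.Tabs
import Cfsg.Agent.H29.ThreeJ.Data.A

/-! Orbit data for `3·J₃` on lines, produced outside Lean and checked here. -/

set_option autoImplicit false
set_option maxRecDepth 16000
set_option Elab.async false

namespace H29.ThreeJData

open H29.ThreeJ H29.CosetCert Cfsg.Spor

theorem orba10_ok : allIn (Fam.orbOK famA T) 10000 1000 = true := by decide +kernel

theorem orba11_ok : allIn (Fam.orbOK famA T) 11000 1000 = true := by decide +kernel

theorem orba12_ok : allIn (Fam.orbOK famA T) 12000 1000 = true := by decide +kernel

theorem orba13_ok : allIn (Fam.orbOK famA T) 13000 1000 = true := by decide +kernel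

theorem orba14_ok : allIn (Fam.orbOK famA T) 14000 1000 = true := by decide +kernel

end H29.ThreeJData
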