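import Cfsg.Agent.H29.ThreeJ.Data.Tabs
import Cfsg.Agent.H29.ThreeJ.Data.A

/-! Orbit data for `3·J₃` on lines, produced outside Lean and checked here. -/

set_option autoImplicit false
set_option maxRecDepth 16000
set_option Elab.async false

namespace H29.ThreeJData

open H29.ThreeJ H29.CosetCert Cfsg.Spor

theorem reacha0_ok : allIn (Fam.reachOK famA T) 0 1000 = true := by decide +kernel

theorem reacha1_ok : allIn (Fam.reachOK famA T) 1000 1000 = true := by decide +kernel

theorem reacha2_ok : allIn (Fam.reachOK famA T) 2000 1000 = true := by decide +kernel

theorem reacha3_ok : allIn (Fam.reachOK famA T) 3000 1000 = true := by decide +kernel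

theorem reacha4_ok : allIn (Fam.reachOK famA T) 4000 1000 = true := by decide +kernel

theorem reacha5_ok : allIn (Fam.reachOK famA T) 5000 1000 = true := by decide +kernel

theorem reacha6_ok : allIn (Fam.reachOK famA T) 6000 1000 = true := by decide +kernel

theorem reacha7_ok : allIn (Fam.reachOK famA T) 7000 1000 = true := by decide +kernel

end H29.ThreeJData
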