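import Cfsg.Agent.H29.ThreeJ.Data.Tabs
import Cfsg.Agent.H29.ThreeJ.Data.A

/-! Orbit data for `3·J₃` on lines, produced outside Lean and checked here. -/

set_option autoImplicit false
set_option maxRecDepth 16000
set_option Elab.async false

namespace H29.ThreeJData

open H29.ThreeJ H29.CosetCert Cfsg.Spor

theorem reacha16_ok : allIn (Fam.reachOK famA T) 16000 1000 = true := by decide +kernel

theorem reacha17_ok : allIn (Fam.reachOK famA T) 17000 1000 = true := by decide +kernel

theorem reacha18_ok : allIn (Fam.reachOK famA T) 18000 1000 = true := by decide +kernel

theorem reacha19_ok : allIn (Fam.reachOK famA T) 19000 1000 = true := by decide +kernel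

theorem reacha20_ok : allIn (Fam.reachOK famA T) 20000 1000 = true := by decide +kernel

theorem reacha21_ok : allIn (Fam.reachOK famA T) 21000 1000 = true := by decide +kernel

theorem reacha22_ok : allIn (Fam.reachOK famA T) 22000 1000 = true := by decide +kernel

theorem reacha23_ok : allIn (Fam.reachOK famA T) 23000 256 = true := by decide +kernel

end H29.ThreeJData
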