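import Cfsg.Agent.H29.ThreeJ.Data.Tabs
import Cfsg.Agent.H29.ThreeJ.Data.B

/-! Orbit data for `3·J₃` on lines, produced outside Lean and checked here. -/

set_option autoImplicit false
set_option maxRecDepth 16000
set_option Elab.async false

namespace H29.ThreeJData

open H29.ThreeJ H29.CosetCert Cfsg.Spor

theorem reachb0_ok : allIn (Fam.reachOK famB T) 0 1000 = true := by decide +kernel

theorem reachb1_ok : allIn (Fam.reachOK famB T) 1000 1000 = true := by decide +kernel

theorem reachb2_ok : allIn (Fam.reachOK famB T) 2000 1000 = true := by decide +kernel

theorem reachb3_ok : allIn (Fam.reachOK famB T) 3000 1000 = true := by decide +kernel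

theorem reachb4_ok : allIn (Fam.reachOK famB T) 4000 1000 = true := by decide +kernel

theorem reachb5_ok : allIn (Fam.reachOK famB T) 5000 1000 = true := by decide +kernel

theorem reachb6_ok : allIn (Fam.reachOK famB T) 6000 1000 = true := by decide +kernel

theorem reachb7_ok : allIn (Fam.reachOK famB T) 7000 1000 = true := by decide +kernel

theorem reachb8_ok : allIn (Fam.reachOK famB T) 8000 1000 = true := by decide +kernel

theorem reachb9_ok : allIn (Fam.reachOK famB T) 9000 1000 = true := by decide +kernel

theorem reachb10_ok : allIn (Fam.reachOK famB T) 10000 1000 = true := by decide +kernel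

theorem reachb11_ok : allIn (Fam.reachOK famB T) 11000 1000 = true := by decide +kernel

end H29.ThreeJData
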