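import Cfsg.Agent.H29.ThreeJ.Data.Tabs
import Cfsg.Agent.H29.ThreeJ.Data.B

/-! Orbit data for `3·J₃` on lines, produced outside Lean and checked here. -/

set_option autoImplicit false
set_option maxRecDepth 16000
set_option Elab.async false

namespace H29.ThreeJData

open H29.ThreeJ H29.CosetCert Cfsg.Spor

theorem reachb24_ok : allIn (Fam.reachOK famB T) 24000 1000 = true := by decide +kernel

theorem reachb25_ok : allIn (Fam.reachOK famB T) 25000 1000 = true := by decide +kernel

theorem reachb26_ok : allIn (Fam.reachOK famB T) 26000 1000 = true := by decide +kernel

theorem reachb27_ok : allIn (Fam.reachOK famB T) 27000 1000 = true := by decide +kernel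

theorem reachb28_ok : allIn (Fam.reachOK famB T) 28000 1000 = true := by decide +kernel

theorem reachb29_ok : allIn (Fam.reachOK famB T) 29000 1000 = true := by decide +kernel

theorem reachb30_ok : allIn (Fam.reachOK famB T) 30000 1000 = true := by decide +kernel

theorem reachb31_ok : allIn (Fam.reachOK famB T) 31000 1000 = true := by decide +kernel

theorem reachb32_ok : allIn (Fam.reachOK famB T) 32000 1000 = true := by decide +kernel

theorem reachb33_ok : allIn (Fam.reachOK famB T) 33000 1000 = true := by decide +kernel

theorem reachb34_ok : allIn (Fam.reachOK famB T) 34000 1000 = true := by decide +kernel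

theorem reachb35_ok : allIn (Fam.reachOK famB T) 35000 1000 = true := by decide +kernel

end H29.ThreeJData
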