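import Cfsg.Agent.H29.ThreeJ.Data.Tabs
import Cfsg.Agent.H29.ThreeJ.Data.B

/-! Orbit data for `3·J₃` on lines, produced outside Lean and checked here. -/

set_option autoImplicit false
set_option maxRecDepth 16000
set_option Elab.async false

namespace H29.ThreeJData

open H29.ThreeJ H29.CosetCert Cfsg.Spor

theorem reachb36_ok : allIn (Fam.reachOK famB T) 36000 1000 = true := by decide +kernel

theorem reachb37_ok : allIn (Fam.reachOK famB T) 37000 1000 = true := by decide +kernel

theorem reachb38_ok : allIn (Fam.reachOK famB T) 38000 1000 = true := by decide +kernel

theorem reachb39_ok : allIn (Fam.reachOK famB T) 39000 1000 = true := by decide +kernel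

theorem reachb40_ok : allIn (Fam.reachOK famB T) 40000 1000 = true := by decide +kernel

theorem reachb41_ok : allIn (Fam.reachOK famB T) 41000 1000 = true := by decide +kernel

theorem reachb42_ok : allIn (Fam.reachOK famB T) 42000 1000 = true := by decide +kernel

theorem reachb43_ok : allIn (Fam.reachOK famB T) 43000 605 = true := by decide +kernel

end H29.ThreeJData
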